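import Mathlib
set_option linter.all false

/-!
# The relative trace and subgroups whose nontrivial elements fix one point of `G / H`

`exists_trace`: let `H ≤ G` be finite groups, `X` a `G`-module over `F` and `f` an `H`-endomorphism of `X`. There is a
`G`-endomorphism `Φ` of `X` (the relative trace of `f`) such that for every subgroup `C ≤ H` with `C ∩ g H g⁻¹ = 1` for all
`g ∉ H` and every `x` fixed by `C`, the vector `Φ x - f x` is a trace `∑ c ∈ C, c y`.

This replaces Burnside / Hall-Higman type arguments in proofs that overgroups `G` of `H` are equal to `H`.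
-/

set_option autoImplicit false

namespace Cfsg.Agent.H189.TraceFix

open Module

universe u v w

/-- sums of equivariant functions over free orbits are traces -/
theorem exists_sum_free {C : Type u} {S : Type v} {X : Type w} [Group C] [Fintype C] [MulAction C S] [Fintype S]
    [AddCommMonoid X] (hfree : ∀ (c : C) (s : S), c • s = s → c = 1) (act : C → X →+ X) (ψ : S → X)
    (hψ : ∀ c s, ψ (c • s) = act c (ψ s)) : ∃ y : X, ∑ s, ψ s = ∑ c, act c y := by
  classical
  let Q := MulAction.orbitRel.Quotient C S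
  have : Fintype Q := Fintype.ofFinite _
  let e : C × Q → S := fun p => p.1 • (Quotient.out p.2 : S)
  have he : Function.Bijective e := by
    constructor
    · rintro ⟨c, a⟩ ⟨d, b⟩ h
      have h0 : c • (Quotient.out a : S) = d • (Quotient.out b : S) := h
      have h1 : a = b := by
        rw [← Quotient.out_eq a, ← Quotient.out_eq b]
        apply Quotient.sound
        refine ⟨c⁻¹ * d, ?_⟩
        change (c⁻¹ * d) • (Quotient.out b : S) = Quotient.out a
        rw [mul_smul, ← h0, inv_smul_smul]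
      subst h1
      have h2 : (c⁻¹ * d) • (Quotient.out a : S) = Quotient.out a := by
        rw [mul_smul, ← h0, inv_smul_smul]
      have h3 := hfree _ _ h2
      rw [inv_mul_eq_one] at h3
      rw [h3]
    · intro s
      have h1 : (MulAction.orbitRel C S).r (Quotient.out (Quotient.mk (MulAction.orbitRel C S) s)) s :=
        Quotient.mk_out (s := MulAction.orbitRel C S) s
      obtain ⟨c, hc⟩ := h1
      refine ⟨⟨c⁻¹, Quotient.mk _ s⟩, ?_⟩
      change c⁻¹ • (Quotient.out (Quotient.mk (MulAction.orbitRel C S) s)) = s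
      have hc' : c • s = Quotient.out (Quotient.mk (MulAction.orbitRel C S) s) := hc
      rw [← hc', inv_smul_smul]
  refine ⟨∑ a : Q, ψ (Quotient.out a), ?_⟩
  rw [← Equiv.sum_comp (Equiv.ofBijective e he), Fintype.sum_prod_type]
  refine Finset.sum_congr rfl fun c _ => ?_
  rw [map_sum]
  refine Finset.sum_congr rfl fun a _ => ?_
  exact hψ c _

section main

variable {F : Type u} {X : Type v} {G : Type w} [Field F] [AddCommGroup X] [Module F X] [Group G] [Finite G]

/-- **the trace lemma** -/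
theorem exists_trace (ρ : G →* End F X) (H : Subgroup G) (f : End F X) (hf : ∀ h ∈ H, ρ h * f = f * ρ h) :
    ∃ Φ : End F X, (∀ g, ρ g * Φ = Φ * ρ g) ∧
      ∀ (C : Subgroup G) [Fintype C], C ≤ H → (∀ g, g ∉ H → ∀ c ∈ C, g⁻¹ * c * g ∈ H → c = 1) →
        ∀ x, (∀ c ∈ C, ρ c x = x) → ∃ y, Φ x = f x + ∑ c : C, ρ c y := by
  classical
  have : Fintype (G ⧸ H) := Fintype.ofFinite _
  have inv : ∀ g : G, ρ g⁻¹ * ρ g = 1 := fun g => by rw [← map_mul, inv_mul_cancel, map_one]
  have inv' : ∀ g : G, ρ g * ρ g⁻¹ = 1 := fun g => by rw [← map_mul, mul_inv_cancel, map_one]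
  let φ : G ⧸ H → End F X := Quotient.lift (fun g => ρ g * f * ρ g⁻¹) (by
    intro a b hab
    have h1 : a⁻¹ * b ∈ H := QuotientGroup.leftRel_apply.1 hab
    have h2 := hf _ h1
    change ρ a * f * ρ a⁻¹ = ρ b * f * ρ b⁻¹
    have h3 : ρ b = ρ a * ρ (a⁻¹ * b) := by rw [← map_mul, mul_inv_cancel_left]
    have h4 : ρ (a⁻¹ * b) * ρ b⁻¹ = ρ a⁻¹ := by rw [← map_mul, mul_inv_cancel_right]
    calc ρ a * f * ρ a⁻¹ = ρ a * f * (ρ (a⁻¹ * b) * ρ b⁻¹) := by rw [h4]
      _ = ρ a * (f * ρ (a⁻¹ * b)) * ρ b⁻¹ := by simp only [mul_assoc]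
      _ = ρ b * f * ρ b⁻¹ := by rw [← h2, h3]; simp only [mul_assoc])
  have hφ : ∀ g : G, φ (g : G ⧸ H) = ρ g * f * ρ g⁻¹ := fun g => rfl
  have hact : ∀ (a : G) (q : G ⧸ H), φ (a • q) = ρ a * φ q * ρ a⁻¹ := by
    intro a q
    obtain ⟨g, rfl⟩ := QuotientGroup.mk_surjective q
    change φ ((a * g : G) : G ⧸ H) = _
    rw [hφ, hφ, mul_inv_rev, map_mul, map_mul]
    simp only [mul_assoc]
  refine ⟨∑ q, φ q, ?_, ?_⟩
  · intro a
    have h1 : ρ a * (∑ q, φ q) * ρ a⁻¹ = ∑ q, φ q := by
      rw [Finset.mul_sum, Finset.sum_mul]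
      simp only [← hact]
      exact Equiv.sum_comp (MulAction.toPerm a : Equiv.Perm (G ⧸ H)) φ
    calc ρ a * ∑ q, φ q = ρ a * (∑ q, φ q) * (ρ a⁻¹ * ρ a) := by rw [inv, mul_one]
      _ = (ρ a * (∑ q, φ q) * ρ a⁻¹) * ρ a := by simp only [mul_assoc]
      _ = (∑ q, φ q) * ρ a := by rw [h1]
  · intro C _ hCH hC x hx
    let S := {q : G ⧸ H // q ≠ ((1 : G) : G ⧸ H)}
    have hfix : ∀ (c : C) (q : G ⧸ H), q ≠ ((1 : G) : G ⧸ H) → (c : G) • q ≠ ((1 : G) : G ⧸ H) := by
      intro c q hq h
      apply hq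
      have h1 : q = (c : G)⁻¹ • ((1 : G) : G ⧸ H) := by rw [← h, inv_smul_smul]
      rw [h1]
      change (((c : G)⁻¹ * 1 : G) : G ⧸ H) = ((1 : G) : G ⧸ H)
      rw [QuotientGroup.eq]
      simpa using hCH c.2
    let iA : MulAction C S :=
      { smul := fun c q => ⟨(c : G) • q.1, hfix c q.1 q.2⟩
        one_smul := fun q => Subtype.ext (one_smul G q.1)
        mul_smul := fun c d q => Subtype.ext (mul_smul (c : G) (d : G) q.1) }
    have hfree : ∀ (c : C) (s : S), c • s = s → c = 1 := by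
      rintro c ⟨q, hq⟩ h
      have h1 : (c : G) • q = q := congrArg Subtype.val h
      obtain ⟨g, rfl⟩ := QuotientGroup.mk_surjective q
      have h2 : ((c * g : G) : G ⧸ H) = (g : G ⧸ H) := h1
      have hg : g ∉ H := by
        intro hg
        apply hq
        rw [QuotientGroup.eq]
        simpa using hg
      rw [eq_comm, QuotientGroup.eq, ← mul_assoc] at h2
      exact Subtype.ext (hC g hg c c.2 h2)
    let act : C → X →+ X := fun c => (ρ (c : G)).toAddMonoidHom
    obtain ⟨y, hy⟩ := exists_sum_free (C := C) (S := S) hfree act (fun s => φ s.1 x) (by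
      intro c s
      change φ ((c : G) • s.1) x = ρ (c : G) (φ s.1 x)
      rw [hact, Module.End.mul_apply, Module.End.mul_apply, hx _ (inv_mem c.2)])
    refine ⟨y, ?_⟩
    have h1 : φ ((1 : G) : G ⧸ H) = f := by rw [hφ, map_one, inv_one, map_one, one_mul, mul_one]
    have h2 : (∑ q, φ q) x = φ ((1 : G) : G ⧸ H) x + ∑ s : S, φ s.1 x := by
      rw [LinearMap.sum_apply, ← Finset.add_sum_erase Finset.univ (fun q => φ q x) (Finset.mem_univ ((1 : G) : G ⧸ H))]
      congr 1
      refine (Finset.sum_subtype _ ?_ _)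
      intro q
      simp
    rw [h2, h1, hy]
    rfl

end main

end Cfsg.Agent.H189.TraceFix
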